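/-
Centralizers of involutions in groups of 2-rank at least three.
-/
import Cfsg.Agent.Lib.Involutions.ThompsonTransfer
import Cfsg.Agent.Lib.Involutions.Counting
import Cfsg.Agent.Lib.TwoGroups.NormalAbelian
import Mathlib.Tactic

namespace CfsgLib.Involutions

variable {G : Type*} [Group G]

/-- Adjoin a commuting involution to an elementary abelian 2-subgroup. -/
theorem exists_extend [Finite G] {K : Subgroup G} {u : G} (hu : u * u = 1)
    (hc : ∀ k ∈ K, k * u = u * k) (he : ∀ k ∈ K, k * k = 1) (hnot : u ∉ K) :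
    ∃ L : Subgroup G, Nat.card L = 2 * Nat.card K ∧ (∀ g, g ∈ L ↔ g ∈ K ∨ g * u ∈ K) ∧
      (∀ g ∈ L, g * g = 1) := by
  classical
  let L : Subgroup G :=
    { carrier := {g | g ∈ K ∨ g * u ∈ K}
      one_mem' := Or.inl K.one_mem
      mul_mem' := by
        intro a b ha hb
        show _ ∨ _
        rcases ha with ha | ha <;> rcases hb with hb | hb
        · exact Or.inl (K.mul_mem ha hb)
        · right; rw [mul_assoc]; exact K.mul_mem ha hb
        · right
          have h := K.mul_mem ha hb
          rwa [mul_assoc, ← hc b hb, ← mul_assoc] at h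
        · left
          have h := K.mul_mem ha hb
          have h1 : a * u * (b * u) = a * (u * (b * u)) := mul_assoc _ _ _
          have h2 : u * (b * u) = b := by
            have := hc (b * u) hb
            rw [← this, mul_assoc, hu, mul_one]
          rwa [h1, h2] at h
      inv_mem' := by
        intro a ha
        show _ ∨ _
        rcases ha with ha | ha
        · exact Or.inl (K.inv_mem ha)
        · right
          have huinv : u⁻¹ = u := inv_eq_of_mul_eq_one_left hu
          have h := K.inv_mem ha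
          have h2 := hc _ h
          rw [mul_inv_rev, huinv] at h h2
          rwa [show a⁻¹ * u = u * a⁻¹ from by
            have h3 : u * a⁻¹ * u = a⁻¹ := by rw [h2, ← mul_assoc, hu, one_mul]
            calc a⁻¹ * u = u * a⁻¹ * u * u := by rw [h3]
              _ = u * a⁻¹ := by rw [mul_assoc, hu, mul_one]] }
  refine ⟨L, ?_, fun g => Iff.rfl, ?_⟩
  · have : Fintype G := Fintype.ofFinite G
    show Nat.card {g : G // g ∈ K ∨ g * u ∈ K} = 2 * Nat.card {g : G // g ∈ K}
    have h2 : Nat.card {g : G // g * u ∈ K} = Nat.card {g : G // g ∈ K} :=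
      Nat.card_congr ((Equiv.mulRight u).subtypeEquiv fun g => Iff.rfl)
    simp only [Nat.card_eq_fintype_card, Fintype.card_subtype] at h2 ⊢
    rw [Finset.filter_or, Finset.card_union_of_disjoint, h2, two_mul]
    exact Finset.disjoint_filter.2 fun g _ h h' => hnot ((K.mul_mem_cancel_left h).1 h')
  · rintro g (hg | hg)
    · exact he g hg
    · have h := he _ hg
      have h2 := hc _ hg
      have h3 : g * g = g * u * (u * g) := by
        rw [← mul_assoc, mul_assoc g u u, hu, mul_one]
      rw [h3, show u * g = g * u from ?_, h]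
      calc u * g = u * (g * u * u) := by rw [mul_assoc g u u, hu, mul_one]
        _ = (g * u) * u * u := by rw [← mul_assoc, ← h2]
        _ = g * u := by rw [mul_assoc (g * u), hu, mul_one]

/-- In a 2-group with an elementary abelian subgroup of order eight there are a central involution
`z` and a further involution with conjugates only `w` and `w z`. -/
theorem exists_central_and_almost_central [Finite G] (hG : IsPGroup 2 G)
    (hrank : ∃ E : Subgroup G, Nat.card E = 8 ∧ ∀ e ∈ E, e * e = 1) :
    ∃ z w : G, orderOf z = 2 ∧ orderOf w = 2 ∧ z ≠ w ∧ z ∈ Subgroup.center G ∧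
      (Subgroup.centralizer ({w} : Set G)).index ≤ 2 := by
  classical
  obtain ⟨A, -, hAn, hAc, hCA⟩ := CfsgLib.TwoGroups.exists_normal_abelian_centralizer_eq hG
    (B := (⊥ : Subgroup G)) inferInstance inferInstance
  have hcomm : ∀ a ∈ A, ∀ b ∈ A, a * b = b * a := fun a ha b hb =>
    congrArg Subtype.val (hAc.is_comm.comm ⟨a, ha⟩ ⟨b, hb⟩)
  let Ω : Subgroup G :=
    { carrier := {a | a ∈ A ∧ a * a = 1}
      one_mem' := ⟨A.one_mem, one_mul 1⟩
      mul_mem' := fun {a b} ha hb => ⟨A.mul_mem ha.1 hb.1, by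
        calc a * b * (a * b) = a * (b * a) * b := by group
          _ = a * (a * b) * b := by rw [hcomm b hb.1 a ha.1]
          _ = 1 := by rw [← mul_assoc, ha.2, one_mul, hb.2]⟩
      inv_mem' := fun {a} ha => ⟨A.inv_mem ha.1, by rw [← mul_inv_rev, ha.2, inv_one]⟩ }
  have hΩn : Ω.Normal := ⟨fun a ha g => ⟨hAn.conj_mem a ha.1 g, by
    rw [conj_mul, ha.2, mul_one, mul_inv_cancel]⟩⟩
  have hbound : ∀ (z w : G), (∀ g : G, g * w * g⁻¹ = w ∨ g * w * g⁻¹ = w * z) →
      (Subgroup.centralizer ({w} : Set G)).index ≤ 2 := by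
    intro z w h
    have h1 := card_isConj_mul_card_centralizer w
    rw [← (Subgroup.centralizer ({w} : Set G)).index_mul_card] at h1
    rw [← Nat.eq_of_mul_eq_mul_right Nat.card_pos h1]
    have h2 : Nat.card {g : G // IsConj w g} ≤ Nat.card {g : G // g = w ∨ g = w * z} :=
      Nat.card_le_card_of_injective (fun g => ⟨g.1, by
        obtain ⟨c, hc⟩ := isConj_iff.1 g.2
        rw [← hc]; exact h c⟩)
        fun a b hab => Subtype.ext (congrArg (fun t => t.1) hab :)
    have : Fintype G := Fintype.ofFinite G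
    refine h2.trans ?_
    rw [Nat.card_eq_fintype_card, Fintype.card_subtype]
    refine (Finset.card_le_card (t := {w, w * z}) fun g hg => ?_).trans Finset.card_le_two
    simpa using hg
  obtain ⟨E, hE, hEe⟩ := hrank
  have hG1 : ∃ g : G, g ≠ 1 := by
    by_contra h
    push Not at h
    have hs : Subsingleton G := ⟨fun a b => (h a).trans (h b).symm⟩
    rw [Nat.card_of_subsingleton (1 : E)] at hE
    omega
  have hA : A ≠ ⊥ := by
    intro hA
    obtain ⟨g, hg⟩ := hG1
    have : g ∈ Subgroup.centralizer (A : Set G) := by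
      rw [hA, Subgroup.mem_centralizer_iff]; intro h hh; rw [Subgroup.mem_bot.1 hh, one_mul, mul_one]
    rw [hCA, hA, Subgroup.mem_bot] at this
    exact hg this
  have hΩ : Ω ≠ ⊥ := by
    obtain ⟨k, hk⟩ := (hG.to_subgroup A).exists_card_eq
    rcases k with _ | k
    · exact absurd (Subgroup.card_eq_one.1 (by simpa using hk)) hA
    obtain ⟨⟨a, ha⟩, ha2⟩ := exists_prime_orderOf_dvd_card' (G := ↥A) 2 (hk ▸ dvd_pow_self 2 (Nat.succ_ne_zero k))
    have ha2' : orderOf a = 2 := by rw [← ha2]; exact (Subgroup.orderOf_mk a ha).symm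
    exact fun h => ne_one ha2' (Subgroup.mem_bot.1 (h ▸ (⟨ha, mul_self_eq_one ha2'⟩ : a ∈ Ω)))
  obtain ⟨z, hzΩ, hz1, hzc⟩ := CfsgLib.TwoGroups.exists_mem_center_of_normal (N := Ω) hG hΩ
  have hz : orderOf z = 2 := orderOf_eq_two_iff.2 ⟨hzΩ.2, hz1⟩
  by_cases hbig : Ω ≤ Subgroup.zpowers z
  · -- `A` has a unique involution, hence is cyclic
    have hcyc : IsCyclic A := by
      let _ : CommGroup A := { (inferInstance : Group A) with mul_comm := fun a b => hAc.is_comm.comm a b }
      have : Fintype A := Fintype.ofFinite A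
      refine isCyclic_of_card_pow_eq_one_le fun n hn => ?_
      obtain ⟨k, hk⟩ := (hG.to_subgroup A).exists_card_eq
      -- solutions of `x ^ (2 ^ i) = 1`
      have hsol : ∀ i : ℕ, (Finset.univ.filter fun a : A => a ^ 2 ^ i = 1).card ≤ 2 ^ i := by
        intro i
        induction i with
        | zero =>
          refine (Finset.card_le_card (t := {1}) fun a ha => ?_).trans_eq (Finset.card_singleton _)
          simpa using ha
        | succ i ih =>
          let f : A →* A := powMonoidHom 2
          have hmap : ∀ a ∈ Finset.univ.filter (fun a : A => a ^ 2 ^ (i + 1) = 1),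
              a ^ 2 ∈ Finset.univ.filter (fun a : A => a ^ 2 ^ i = 1) := by
            intro a ha
            simp only [Finset.mem_filter, Finset.mem_univ, true_and] at ha ⊢
            rw [← pow_mul, mul_comm, ← pow_succ]; exact ha
          calc _ ≤ 2 * (Finset.univ.filter fun a : A => a ^ 2 ^ i = 1).card := by
                refine Finset.card_le_mul_card_image_of_maps_to hmap _ fun b _ => ?_
                by_cases hb : ((Finset.univ.filter (fun a : A => a ^ 2 ^ (i + 1) = 1)).filter
                    fun a => a ^ 2 = b).Nonempty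
                · obtain ⟨a₀, ha₀⟩ := hb
                  simp only [Finset.mem_filter, Finset.mem_univ, true_and] at ha₀
                  refine (Finset.card_le_card (t := {a₀, a₀ * ⟨z, hzΩ.1⟩}) fun a ha => ?_).trans
                    Finset.card_le_two
                  simp only [Finset.mem_filter, Finset.mem_univ, true_and] at ha
                  have hq : a₀⁻¹ * a ∈ Ω.subgroupOf A := by
                    refine Subgroup.mem_subgroupOf.2 ⟨(a₀⁻¹ * a).2, ?_⟩
                    have : (a₀⁻¹ * a) ^ 2 = 1 := by rw [mul_pow, inv_pow, ha.2, ha₀.2, inv_mul_cancel]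
                    rw [← pow_two]; exact congrArg Subtype.val this
                  have hq' : ((a₀⁻¹ * a : A) : G) ∈ Subgroup.zpowers z := hbig hq
                  obtain ⟨j, hj⟩ := Subgroup.mem_zpowers_iff.1 hq'
                  rw [Finset.mem_insert, Finset.mem_singleton]
                  rcases Int.even_or_odd j with ⟨l, hl⟩ | ⟨l, hl⟩
                  · left
                    have : a₀⁻¹ * a = 1 := Subtype.ext (by
                      show ((a₀⁻¹ * a : A) : G) = 1
                      rw [← hj, hl, ← two_mul, zpow_mul, zpow_two, hzΩ.2, one_zpow])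
                    exact (inv_mul_eq_one.1 this).symm
                  · right
                    have : a₀⁻¹ * a = ⟨z, hzΩ.1⟩ := Subtype.ext (by
                      show ((a₀⁻¹ * a : A) : G) = z
                      rw [← hj, hl, zpow_add_one, zpow_mul, zpow_two, hzΩ.2, one_zpow, one_mul])
                    rw [← this, mul_inv_cancel_left]
                · rw [Finset.not_nonempty_iff_eq_empty.1 hb]; simp
            _ ≤ 2 * 2 ^ i := Nat.mul_le_mul_left 2 ih
            _ = 2 ^ (i + 1) := by ring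
      -- reduce to divisors of `|A|`
      obtain ⟨i, -, hi⟩ := (Nat.dvd_prime_pow Nat.prime_two).1 (hk ▸ Nat.gcd_dvd_right n (Nat.card A))
      calc (Finset.univ.filter fun a : A => a ^ n = 1).card
          ≤ (Finset.univ.filter fun a : A => a ^ 2 ^ i = 1).card := by
            refine Finset.card_le_card fun a ha => ?_
            simp only [Finset.mem_filter, Finset.mem_univ, true_and] at ha ⊢
            rw [← hi]
            exact pow_gcd_eq_one.2 ⟨ha, (by rw [← hk]; exact pow_card_eq_one')⟩
        _ ≤ 2 ^ i := hsol i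
        _ ≤ n := hi ▸ Nat.gcd_le_left _ hn
    obtain ⟨⟨a, haA⟩, hgen⟩ := hcyc.exists_generator
    have hAz : A = Subgroup.zpowers a := by
      refine le_antisymm (fun b hb => ?_) (Subgroup.zpowers_le.2 haA)
      obtain ⟨i, hi⟩ := Subgroup.mem_zpowers_iff.1 (hgen ⟨b, hb⟩)
      exact Subgroup.mem_zpowers_iff.2 ⟨i, congrArg Subtype.val hi⟩
    obtain ⟨n, hn⟩ := (Nat.dvd_prime_pow Nat.prime_two).1
      (hG.exists_card_eq.choose_spec ▸ orderOf_dvd_natCard a) |>.imp fun i h => h.2
    have hact : ∀ g : G, ∃ r : ℤ, g * a * g⁻¹ = a ^ r := by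
      intro g
      have h : g * a * g⁻¹ ∈ Subgroup.zpowers a := hAz ▸ hAn.conj_mem a haA g
      obtain ⟨r, hr⟩ := Subgroup.mem_zpowers_iff.1 h
      exact ⟨r, hr.symm⟩
    choose r hr using hact
    have hmod : ∀ e ∈ E, ((r e : ℤ) : ZMod (2 ^ n)) * r e = 1 := by
      intro e he
      have h1 : a ^ (r e * r e) = a ^ (1 : ℤ) := by
        rw [zpow_mul, ← hr e, conj_zpow, ← hr e, zpow_one]
        calc e * (e * a * e⁻¹) * e⁻¹ = (e * e) * a * (e * e)⁻¹ := by group
          _ = a := by rw [hEe e he, one_mul, inv_one, mul_one]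
      rw [← orderOf_dvd_sub_iff_zpow_eq_zpow, hn, ← ZMod.intCast_eq_intCast_iff_dvd_sub] at h1
      push_cast at h1
      exact h1.symm
    -- two elements of `E` with the same action differ by an element of `A`
    have hsame : ∀ e f : G, ((r e : ℤ) : ZMod (2 ^ n)) = r f → e⁻¹ * f ∈ A := by
      intro e f h
      have h1 : e * a * e⁻¹ = f * a * f⁻¹ := by
        rw [hr e, hr f, ← orderOf_dvd_sub_iff_zpow_eq_zpow, hn,
          ← ZMod.intCast_eq_intCast_iff_dvd_sub]
        exact h.symm
      rw [← hCA, hAz, Subgroup.zpowers_eq_closure, Subgroup.centralizer_closure,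
        mem_centralizer_singleton]
      calc e⁻¹ * f * a = e⁻¹ * (f * a * f⁻¹) * f := by group
        _ = e⁻¹ * (e * a * e⁻¹) * f := by rw [h1]
        _ = a * (e⁻¹ * f) := by group
    obtain ⟨e, heE, her1, her2⟩ : ∃ e ∈ E, ((r e : ℤ) : ZMod (2 ^ n)) = 1 + (2 ^ (n - 1) : ℕ) ∧ 3 ≤ n := by
      have : Fintype G := Fintype.ofFinite G
      let S : Finset (ZMod (2 ^ n)) := (Finset.univ.filter fun e : G => e ∈ E).image fun e => ((r e : ℤ) : ZMod (2 ^ n))
      have hS4 : 4 ≤ S.card := by
        have h8 : (Finset.univ.filter fun e : G => e ∈ E).card = 8 := by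
          rw [← hE, Nat.card_eq_fintype_card, ← Fintype.card_subtype]
        have := Finset.card_le_mul_card_image (f := fun e : G => ((r e : ℤ) : ZMod (2 ^ n)))
          (Finset.univ.filter fun e : G => e ∈ E) 2 fun b hb => ?_
        · change _ ≤ 2 * S.card at this; omega
        obtain ⟨e₀, he₀, rfl⟩ := Finset.mem_image.1 hb
        simp only [Finset.mem_filter, Finset.mem_univ, true_and] at he₀
        refine (Finset.card_le_card (t := {e₀, e₀ * z}) fun f hf => ?_).trans Finset.card_le_two
        simp only [Finset.mem_filter, Finset.mem_univ, true_and] at hf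
        have hq : e₀⁻¹ * f ∈ Ω := ⟨hsame _ _ hf.2.symm, hEe _ (E.mul_mem (E.inv_mem he₀) hf.1)⟩
        obtain ⟨j, hj⟩ := Subgroup.mem_zpowers_iff.1 (hbig hq)
        rw [Finset.mem_insert, Finset.mem_singleton]
        rcases Int.even_or_odd j with ⟨l, hl⟩ | ⟨l, hl⟩
        · left
          rw [hl, ← two_mul, zpow_mul, zpow_two, hzΩ.2, one_zpow] at hj
          exact (inv_mul_eq_one.1 hj.symm).symm
        · right
          rw [hl, zpow_add_one, zpow_mul, zpow_two, hzΩ.2, one_zpow, one_mul] at hj
          rw [hj, mul_inv_cancel_left]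
      have hroot : ∀ x ∈ S, x * x = 1 := by
        intro x hx
        obtain ⟨e, he, rfl⟩ := Finset.mem_image.1 hx
        simp only [Finset.mem_filter, Finset.mem_univ, true_and] at he
        exact hmod e he
      have hn3 : 3 ≤ n := by
        by_contra h
        have hlt : n < 3 := by omega
        have : (Finset.univ.filter fun x : ZMod (2 ^ n) => x * x = 1).card < 4 := by
          interval_cases n <;> decide
        have h' : S.card ≤ (Finset.univ.filter fun x : ZMod (2 ^ n) => x * x = 1).card :=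
          Finset.card_le_card fun x hx => by simpa using hroot x hx
        omega
      have hcases : ∀ x : ZMod (2 ^ n), x * x = 1 →
          x ∈ ({1, -1, 1 + ((2 ^ (n - 1) : ℕ) : ZMod (2 ^ n)), -1 + ((2 ^ (n - 1) : ℕ) : ZMod (2 ^ n))} : Finset (ZMod (2 ^ n))) := by
        intro x hx
        obtain ⟨v, rfl⟩ := ZMod.intCast_surjective x
        have hd : (2 : ℤ) ^ n ∣ v * v - 1 := by
          have h := hx
          rw [← Int.cast_mul, show (1 : ZMod (2 ^ n)) = ((1 : ℤ) : ZMod (2 ^ n)) by simp,
            eq_comm, ZMod.intCast_eq_intCast_iff_dvd_sub] at h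
          exact_mod_cast h
        obtain ⟨n', rfl⟩ : ∃ n', n = n' + 2 := ⟨n - 2, by omega⟩
        have hodd : Odd v := by
          refine Int.not_even_iff_odd.1 fun ⟨q, hq⟩ => ?_
          have h2 : (2 : ℤ) ∣ v * v - 1 := dvd_trans (dvd_pow_self 2 (by omega)) hd
          subst hq
          obtain ⟨c, hc⟩ := h2
          have : (q + q) * (q + q) = 2 * (2 * q * q) := by ring
          omega
        obtain ⟨q, rfl⟩ := hodd
        have h4 : (2 : ℤ) ^ n' ∣ q * (q + 1) := by
          rw [show (2 * q + 1) * (2 * q + 1) - 1 = 4 * (q * (q + 1)) by ring,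
            show (2 : ℤ) ^ (n' + 2) = 4 * 2 ^ n' by ring] at hd
          exact Int.dvd_of_mul_dvd_mul_left (by norm_num) hd
        simp only [Finset.mem_insert, Finset.mem_singleton]
        have htop : ((2 : ZMod (2 ^ (n' + 2))) ^ (n' + 2)) = 0 := by
          exact_mod_cast ZMod.natCast_self (2 ^ (n' + 2))
        rcases Int.even_or_odd q with hq | hq
        · have hcop : IsCoprime ((2 : ℤ) ^ n') (q + 1) := by
            refine IsCoprime.pow_left ?_
            obtain ⟨w, rfl⟩ := hq
            exact ⟨-w, 1, by ring⟩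
          obtain ⟨c, rfl⟩ := hcop.dvd_of_dvd_mul_right h4
          rcases Int.even_or_odd c with ⟨l, rfl⟩ | ⟨l, rfl⟩
          · left; push_cast; linear_combination (l : ZMod (2 ^ (n' + 2))) * htop
          · right; right; left; push_cast
            linear_combination (l : ZMod (2 ^ (n' + 2))) * htop
        · have hcop : IsCoprime ((2 : ℤ) ^ n') q := by
            refine IsCoprime.pow_left ?_
            obtain ⟨w, rfl⟩ := hq
            exact ⟨-w, 1, by ring⟩
          obtain ⟨c, hc⟩ := hcop.dvd_of_dvd_mul_left h4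
          have hq' : q = 2 ^ n' * c - 1 := by omega
          subst hq'
          rcases Int.even_or_odd c with ⟨l, rfl⟩ | ⟨l, rfl⟩
          · right; left; push_cast; linear_combination (l : ZMod (2 ^ (n' + 2))) * htop
          · right; right; right; push_cast
            linear_combination (l : ZMod (2 ^ (n' + 2))) * htop
      by_contra hcon
      push Not at hcon
      have hsub : S ⊆ ({1, -1, -1 + ((2 ^ (n - 1) : ℕ) : ZMod (2 ^ n))} : Finset (ZMod (2 ^ n))) := by
        intro x hx
        have hc := hcases x (hroot x hx)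
        simp only [Finset.mem_insert, Finset.mem_singleton] at hc ⊢
        obtain ⟨e, he, rfl⟩ := Finset.mem_image.1 hx
        simp only [Finset.mem_filter, Finset.mem_univ, true_and] at he
        rcases hc with h | h | h | h
        · exact Or.inl h
        · exact Or.inr (Or.inl h)
        · exact absurd (hcon e he h) (by omega)
        · exact Or.inr (Or.inr h)
      have := (Finset.card_le_card hsub).trans Finset.card_le_three
      omega
    obtain ⟨m, rfl⟩ : ∃ m, n = m + 3 := ⟨n - 3, by omega⟩
    rw [show m + 3 - 1 = m + 2 from by omega] at her1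
    have hz' : z = a ^ (2 ^ (m + 2)) := by
      rw [(eq_half_of_mem_zpowers hz (hAz ▸ hzΩ.1)).2, hn]
      congr 1
      rw [pow_succ, Nat.mul_div_cancel _ two_pos]
    have he1 : e ≠ 1 := by
      rintro rfl
      have h : a ^ r 1 = a ^ (1 : ℤ) := by rw [← hr 1]; simp
      rw [← orderOf_dvd_sub_iff_zpow_eq_zpow, hn, ← ZMod.intCast_eq_intCast_iff_dvd_sub,
        Int.cast_one, her1, eq_comm, add_eq_left, ZMod.natCast_eq_zero_iff] at h
      have := Nat.le_of_dvd (Nat.two_pow_pos _) h
      rw [pow_succ] at this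
      have := Nat.two_pow_pos (m + 2); omega
    have he2 : orderOf e = 2 := orderOf_eq_two_iff.2 ⟨hEe e heE, he1⟩
    have hzne : z ≠ e := by
      rintro rfl
      have h : a ^ r z = a ^ (1 : ℤ) := by
        rw [← hr z, ← Subgroup.mem_center_iff.1 hzc a, mul_inv_cancel_right, zpow_one]
      rw [← orderOf_dvd_sub_iff_zpow_eq_zpow, hn, ← ZMod.intCast_eq_intCast_iff_dvd_sub,
        Int.cast_one, her1, eq_comm, add_eq_left, ZMod.natCast_eq_zero_iff] at h
      have := Nat.le_of_dvd (Nat.two_pow_pos _) h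
      rw [pow_succ] at this
      have := Nat.two_pow_pos (m + 2); omega
    refine ⟨z, e, hz, he2, hzne, hzc, hbound z e fun g => ?_⟩
    -- the commutator `g e g⁻¹ e⁻¹` lies in `A`
    have hmemA : g * e * g⁻¹ * e⁻¹ ∈ A := by
      rw [← hCA, hAz, Subgroup.zpowers_eq_closure, Subgroup.centralizer_closure,
        mem_centralizer_singleton]
      have hc1 : ∀ (x : G) (i : ℤ), x * a ^ i * x⁻¹ = a ^ (r x * i) := fun x i => by
        rw [← conj_zpow, hr x, ← zpow_mul]
      have hge : g * e * a * (g * e)⁻¹ = e * g * a * (e * g)⁻¹ := by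
        calc g * e * a * (g * e)⁻¹ = g * (e * a * e⁻¹) * g⁻¹ := by group
          _ = a ^ (r g * r e) := by rw [hr e, hc1]
          _ = e * (g * a * g⁻¹) * e⁻¹ := by rw [hr g, hc1, mul_comm]
          _ = e * g * a * (e * g)⁻¹ := by group
      calc g * e * g⁻¹ * e⁻¹ * a = g * e * ((e * g)⁻¹ * a * (e * g)) * (e * g)⁻¹ := by group
        _ = (g * e * ((e * g)⁻¹ * a * (e * g)) * (g * e)⁻¹) * (g * e * (e * g)⁻¹) := by group
        _ = (e * g * ((e * g)⁻¹ * a * (e * g)) * (e * g)⁻¹) * (g * e * (e * g)⁻¹) := by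
          obtain ⟨i, hi⟩ : ∃ i : ℤ, (e * g)⁻¹ * a * (e * g) = a ^ i := by
            refine ⟨r (e * g)⁻¹, ?_⟩
            rw [← hr, inv_inv]
          rw [hi]
          have : ∀ x : G, x * a ^ i * x⁻¹ = (x * a * x⁻¹) ^ i := fun x => conj_zpow.symm
          rw [this, this, hge]
        _ = a * (g * e * g⁻¹ * e⁻¹) := by group
    obtain ⟨i, hi⟩ := Subgroup.mem_zpowers_iff.1 (hAz ▸ hmemA)
    have hge : g * e * g⁻¹ = a ^ i * e := by rw [hi, inv_mul_cancel_right]
    -- it squares to one
    have hsq : a ^ (i * (1 + r e)) = 1 := by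
      have h := mul_self_eq_one ((orderOf_conj g e).trans he2)
      rw [hge] at h
      rw [mul_add, mul_one, zpow_add, mul_comm i, zpow_mul, ← hr e, conj_zpow]
      calc a ^ i * (e * a ^ i * e⁻¹) = a ^ i * e * (a ^ i * e) * (e * e)⁻¹ := by group
        _ = 1 := by rw [h, mul_self_eq_one he2, inv_one, mul_one]
    rw [← orderOf_dvd_iff_zpow_eq_one, hn, ← ZMod.intCast_zmod_eq_zero_iff_dvd] at hsq
    push_cast at hsq her1
    rw [her1] at hsq
    have hd : ((2 ^ (m + 2) : ℕ) : ℤ) ∣ i := by
      have h2 : ((i * (2 + 2 ^ (m + 2)) : ℤ) : ZMod (2 ^ (m + 3))) = 0 := by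
        push_cast; rw [← hsq]; ring
      rw [ZMod.intCast_zmod_eq_zero_iff_dvd, show (i * (2 + 2 ^ (m + 2)) : ℤ) = 2 * (i * (1 + 2 ^ (m + 1))) by ring,
        show ((2 ^ (m + 3) : ℕ) : ℤ) = 2 * 2 ^ (m + 2) by push_cast; ring] at h2
      push_cast
      refine (IsCoprime.pow_left ?_).dvd_of_dvd_mul_right (Int.dvd_of_mul_dvd_mul_left (by norm_num) h2)
      exact ⟨-2 ^ m, 1, by ring⟩
    obtain ⟨c, rfl⟩ := hd
    have hez : z * e = e * z := (Subgroup.mem_center_iff.1 hzc e).symm
    rcases Int.even_or_odd c with ⟨l, rfl⟩ | ⟨l, rfl⟩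
    · left
      rw [hge, show ((2 ^ (m + 2) : ℕ) : ℤ) * (l + l) = ((2 ^ (m + 2) : ℕ) : ℤ) * (2 * l) by ring,
        zpow_mul, zpow_natCast, ← hz', zpow_mul, zpow_two, hzΩ.2, one_zpow, one_mul]
    · right
      rw [hge, zpow_mul, zpow_natCast, ← hz', zpow_add_one, zpow_mul, zpow_two, hzΩ.2, one_zpow,
        one_mul, hez]
  · -- a noncyclic normal elementary subgroup
    have hn : (Subgroup.zpowers z).Normal := ⟨fun b hb g => by
      rw [Subgroup.mem_center_iff.1 ((Subgroup.zpowers_le.2 hzc) hb) g, mul_inv_cancel_right]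
      exact hb⟩
    have hmap : Ω.map (QuotientGroup.mk' (Subgroup.zpowers z)) ≠ ⊥ := by
      rw [Ne, Subgroup.map_eq_bot_iff, QuotientGroup.ker_mk']; exact hbig
    have := hΩn.map (QuotientGroup.mk' (Subgroup.zpowers z)) (QuotientGroup.mk'_surjective _)
    obtain ⟨c, hc, hc1, hcc⟩ := CfsgLib.TwoGroups.exists_mem_center_of_normal
      (hG.to_quotient (Subgroup.zpowers z)) hmap
    obtain ⟨w, hw, rfl⟩ := hc
    have hw1 : w ∉ Subgroup.zpowers z := fun h => hc1 ((QuotientGroup.eq_one_iff w).2 h)
    refine ⟨z, w, hz, orderOf_eq_two_iff.2 ⟨hw.2, fun h => hw1 (h ▸ one_mem _)⟩,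
      fun h => hw1 (h ▸ Subgroup.mem_zpowers z), hzc, hbound z w fun g => ?_⟩
    have hk : w⁻¹ * (g * w * g⁻¹) ∈ Subgroup.zpowers z := by
      rw [← QuotientGroup.eq_one_iff, QuotientGroup.mk_mul, QuotientGroup.mk_inv,
        QuotientGroup.mk_mul, QuotientGroup.mk_mul, QuotientGroup.mk_inv]
      rw [show ((g : G ⧸ Subgroup.zpowers z)) * (w : G ⧸ Subgroup.zpowers z)
        = (w : G ⧸ Subgroup.zpowers z) * g from Subgroup.mem_center_iff.1 hcc _]
      rw [mul_inv_cancel_right, inv_mul_cancel]
    obtain ⟨j, hj⟩ := Subgroup.mem_zpowers_iff.1 hk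
    rcases Int.even_or_odd j with ⟨l, hl⟩ | ⟨l, hl⟩
    · left
      rw [hl, ← two_mul, zpow_mul, zpow_two, hzΩ.2, one_zpow] at hj
      exact (inv_mul_eq_one.1 hj.symm).symm
    · right
      rw [hl, zpow_add_one, zpow_mul, zpow_two, hzΩ.2, one_zpow, one_mul] at hj
      rw [hj, mul_inv_cancel_left]

/-- With no subgroup of index two and 2-rank at least three, every involution centralizes an
elementary abelian subgroup of order eight. -/
theorem exists_eight_le_centralizer [Finite G] (hno : ∀ H : Subgroup G, H.index ≠ 2)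
    (hrank : ∃ E : Subgroup G, Nat.card E = 8 ∧ ∀ e ∈ E, e * e = 1) {x : G} (hx : orderOf x = 2) :
    ∃ E : Subgroup G, E ≤ Subgroup.centralizer ({x} : Set G) ∧ Nat.card E = 8 ∧
      ∀ e ∈ E, e * e = 1 := by
  classical
  obtain ⟨E, hE, hEe⟩ := hrank
  have hEp : IsPGroup 2 E := IsPGroup.of_card (n := 3) (hE.trans (by norm_num))
  obtain ⟨T, hT⟩ := hEp.exists_le_sylow
  obtain ⟨⟨z, hzT⟩, ⟨w, hwT⟩, hz, hw, hzw, hzc, hwi⟩ := exists_central_and_almost_central T.isPGroup'
    ⟨E.subgroupOf T, (Nat.card_congr (Subgroup.subgroupOfEquivOfLe hT).toEquiv).trans hE,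
      fun e he => Subtype.ext (hEe e he)⟩
  rw [Subgroup.orderOf_mk] at hz hw
  have hzw' : z ≠ w := fun h => hzw (Subtype.ext h)
  set M : Subgroup G := (T : Subgroup G) ⊓ Subgroup.centralizer ({w} : Set G) with hM
  have hMT : M.subgroupOf T = Subgroup.centralizer ({⟨w, hwT⟩} : Set ↥(T : Subgroup G)) := by
    ext ⟨y, hy⟩
    rw [Subgroup.mem_subgroupOf, hM, Subgroup.mem_inf, mem_centralizer_singleton,
      mem_centralizer_singleton, Subtype.ext_iff]
    exact and_iff_right hy
  -- move `x` into `M`
  obtain ⟨g, hg⟩ : ∃ g : G, g * x * g⁻¹ ∈ M := by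
    by_cases h1 : (Subgroup.centralizer ({⟨w, hwT⟩} : Set ↥(T : Subgroup G))).index = 1
    · obtain ⟨g, hg⟩ := exists_conj_mem_of_involution T hx
      refine ⟨g, ?_⟩
      have h : (⟨g * x * g⁻¹, hg⟩ : ↥(T : Subgroup G)) ∈ M.subgroupOf T := by
        rw [hMT, Subgroup.index_eq_one.1 h1]; exact Subgroup.mem_top _
      exact h
    · by_contra hcon
      push Not at hcon
      have h2 : M.relIndex T = 2 := by
        show (M.subgroupOf T).index = 2
        rw [hMT]
        have := (Subgroup.centralizer ({⟨w, hwT⟩} : Set ↥(T : Subgroup G))).index_ne_zero_of_finite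
        omega
      have h4 : M.index % 4 = 2 := by
        rw [← Subgroup.relIndex_mul_index (inf_le_left : M ≤ T), h2]
        have := T.not_dvd_index
        omega
      obtain ⟨K, hK⟩ := exists_index_two_of_involution_not_conj hx h4 hcon
      exact hno K hK
  set y := g * x * g⁻¹ with hy
  have hy2 : orderOf y = 2 := (orderOf_conj g x).trans hx
  have hzT' : ∀ t ∈ (T : Subgroup G), t * z = z * t := fun t ht =>
    congrArg Subtype.val (Subgroup.mem_center_iff.1 hzc ⟨t, ht⟩)
  obtain ⟨Z₁, hZ₁, hZ₁m, hZ₁e⟩ := exists_extend (K := (⊥ : Subgroup G)) (mul_self_eq_one hz)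
    (fun k hk => by rw [Subgroup.mem_bot.1 hk, one_mul, mul_one])
    (fun k hk => by rw [Subgroup.mem_bot.1 hk, one_mul]) (fun h => ne_one hz (Subgroup.mem_bot.1 h))
  have hZ1cases : ∀ k ∈ Z₁, k = 1 ∨ k = z := fun k hk => by
    rcases (hZ₁m k).1 hk with h | h
    · exact Or.inl (Subgroup.mem_bot.1 h)
    · exact Or.inr ((orderOf_mul_eq_one_iff hz).1 (Subgroup.mem_bot.1 h))
  obtain ⟨U, hU, hUm, hUe⟩ := exists_extend (K := Z₁) (mul_self_eq_one hw)
    (fun k hk => by
      rcases hZ1cases k hk with rfl | rfl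
      · rw [one_mul, mul_one]
      · exact (hzT' w hwT).symm)
    hZ₁e (fun h => (hZ1cases w h).elim (ne_one hw) (Ne.symm hzw'))
  have hUcases : ∀ k ∈ U, k = 1 ∨ k = z ∨ k = w ∨ k = z * w := fun k hk => by
    rcases (hUm k).1 hk with h | h
    · rcases hZ1cases k h with h | h
      · exact Or.inl h
      · exact Or.inr (Or.inl h)
    · rcases hZ1cases _ h with h | h
      · exact Or.inr (Or.inr (Or.inl ((orderOf_mul_eq_one_iff hw).1 h)))
      · refine Or.inr (Or.inr (Or.inr ?_))
        rw [← h, mul_assoc, mul_self_eq_one hw, mul_one]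
  -- everything in `M` commutes with `U`
  have hMU : ∀ t ∈ M, ∀ k ∈ U, k * t = t * k := by
    intro t ht k hk
    have htz : Commute t z := hzT' t ht.1
    have htw : Commute t w := mem_centralizer_singleton.1 ht.2
    rcases hUcases k hk with rfl | rfl | rfl | rfl
    · rw [one_mul, mul_one]
    · exact htz.symm.eq
    · exact htw.symm.eq
    · exact (htz.mul_right htw).symm.eq
  obtain ⟨u, hu2, huM, huU, huy⟩ : ∃ u : G, u * u = 1 ∧ u ∈ M ∧ u ∉ U ∧ u * y = y * u := by
    by_cases hyU : y ∈ U
    · by_cases hEU : ∀ e ∈ E, e ∈ M → e ∈ U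
      · exfalso
        have hU4 : Nat.card U = 4 := by rw [hU, hZ₁, Subgroup.card_bot]
        have hcard : 4 ≤ Nat.card ↥(E ⊓ M) := by
          have h2 : (M.subgroupOf T).index ≤ 2 := by rw [hMT]; exact hwi
          have h3 : M.relIndex E ≤ M.relIndex T :=
            Subgroup.relIndex_le_of_le_right hT Subgroup.index_ne_zero_of_finite
          have h5 := (M.subgroupOf E).card_mul_index
          rw [hE, ← Subgroup.inf_subgroupOf_left,
            Nat.card_congr (Subgroup.subgroupOfEquivOfLe inf_le_left).toEquiv,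
            Subgroup.inf_subgroupOf_left] at h5
          change _ * M.relIndex E = 8 at h5
          have h6 : M.relIndex E ≤ 2 := h3.trans h2
          nlinarith
        have heq : E ⊓ M = U := Subgroup.eq_of_le_of_card_ge (fun e he => hEU e he.1 he.2) (by omega)
        have hwE : w ∈ E := by
          have hwU : w ∈ U := (hUm w).2 (Or.inr (by rw [mul_self_eq_one hw]; exact Z₁.one_mem))
          rw [← heq] at hwU; exact hwU.1
        have hEM : E ≤ M := fun e he => ⟨hT he, mem_centralizer_singleton.2 (by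
          have h1 := hEe _ (E.mul_mem he hwE)
          calc e * w = (e * w)⁻¹ := eq_inv_of_mul_eq_one_left h1
            _ = w * e := by rw [mul_inv_rev, inv_eq_of_mul_eq_one_left (hEe e he),
                  inv_eq_self hw])⟩
        rw [inf_eq_left.2 hEM] at heq
        rw [heq, hU4] at hE
        omega
      · push Not at hEU
        obtain ⟨e, heE, heM, heU⟩ := hEU
        exact ⟨e, hEe e heE, heM, heU, (hMU e heM y hyU).symm⟩
    · exact ⟨y, mul_self_eq_one hy2, hg, hyU, rfl⟩
  obtain ⟨B, hB, hBm, hBe⟩ := exists_extend hu2 (hMU u huM) hUe huU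
  refine ⟨B.map (MulAut.conj g⁻¹).toMonoidHom, ?_, ?_, ?_⟩
  · rintro _ ⟨b, hb, rfl⟩
    have hby : b * y = y * b := by
      rcases (hBm b).1 hb with h | h
      · exact hMU y hg b h
      · have h' : (b * u) * y = y * (b * u) := hMU y hg _ h
        calc b * y = b * u * u * y := by rw [mul_assoc b u u, hu2, mul_one]
          _ = b * u * (y * u) := by rw [mul_assoc (b * u) u y, huy]
          _ = y * (b * u) * u := by rw [← mul_assoc, h']
          _ = y * b := by rw [mul_assoc y, mul_assoc b u u, hu2, mul_one]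
    refine mem_centralizer_singleton.2 ?_
    show g⁻¹ * b * g⁻¹⁻¹ * x = x * (g⁻¹ * b * g⁻¹⁻¹)
    rw [inv_inv]
    calc g⁻¹ * b * g * x = g⁻¹ * (b * y) * g := by rw [hy]; group
      _ = g⁻¹ * (y * b) * g := by rw [hby]
      _ = x * (g⁻¹ * b * g) := by rw [hy]; group
  · rw [Subgroup.card_map_of_injective (MulAut.conj g⁻¹).injective, hB, hU, hZ₁, Subgroup.card_bot]
  · rintro _ ⟨b, hb, rfl⟩
    rw [← map_mul, hBe b hb, map_one]

end CfsgLib.Involutions
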